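import Cfsg.Agent.Lib.Chev.F4Weyl
import Cfsg.Agent.Lib.Chev.Field
import Cfsg.Agent.Lib.Forms.TriAlt

/-! Alternating sections of groups of type F₄. -/

set_option autoImplicit false
set_option maxHeartbeats 400000

namespace Cfsg.Agent.Lib.Chev.F4W
open Cfsg.Lie Cfsg.Agent.Lib.Forms Cfsg.Agent.Lib.Core Subgroup Equiv

noncomputable section

theorem conj_pow_iter {H : Type*} [Group H] {g x : H} {j : ℕ} (h : g * x * g⁻¹ = x ^ j) (n : ℕ) :
    g ^ n * x * (g ^ n)⁻¹ = x ^ j ^ n := by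
  induction n with
  | zero => simp
  | succ n ih =>
    rw [show g ^ (n + 1) * x * (g ^ (n + 1))⁻¹ = g * (g ^ n * x * (g ^ n)⁻¹) * g⁻¹ by rw [pow_succ']; group,
      ih, ← conj_pow, h, ← pow_mul, pow_succ']

variable {E : Type*} [Field E] {H : Type*} [Group H]

structure Emb (ι : H →* GL chevF4.Idx E) : Prop where
  inj : Function.Injective ι
  mem : ∀ x, ι x ∈ chevF4.group E

variable {ι : H →* GL chevF4.Idx E}

theorem Emb.conj (h : Emb ι) {y : GL chevF4.Idx E} (hy : y ∈ chevF4.group E) :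
    Emb ((MulAut.conj y).toMonoidHom.comp ι) :=
  ⟨(MulAut.conj y).injective.comp h.inj, fun x => mul_mem (mul_mem hy (h.mem x)) (inv_mem hy)⟩

theorem Emb.act (h : Emb ι) {A : Set H} (hA : ∀ a ∈ A, ι a ∈ (f4Cert.full E).T) {g : H}
    (hg : ∀ a ∈ A, g * a * g⁻¹ ∈ A) : (∀ a ∈ A, g ^ 8 * a * (g ^ 8)⁻¹ = a) ∨
      (∀ a ∈ A, g ^ 6 * a * (g ^ 6)⁻¹ = a) ∨ ∀ a ∈ A, g ^ 6 * a * (g ^ 6)⁻¹ = a⁻¹ := by
  obtain ⟨w, _, _, _, -, -, -, -, hw⟩ := f4Cert.fusion (h.mem g)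
  have key : ∀ n : ℕ, ∀ a ∈ A, ∀ χ, f4Cert.h χ = ι a → ∃ χ', f4Cert.h χ' = ι (g ^ n * a * (g ^ n)⁻¹) ∧
      ∀ r, χ'.ev (f4Cert.R.ρ r) = χ.ev (f4Cert.R.ρ ((f4Cert.R.inv w)^[n] r)) := fun n => by
    induction n with
    | zero => exact fun a _ χ e => ⟨χ, by simpa using e, fun _ => rfl⟩
    | succ n ih =>
      intro a ha χ e
      obtain ⟨χ1, h1⟩ := hA _ (hg a ha)
      obtain ⟨χ', h2, h3⟩ := ih _ (hg a ha) χ1 h1
      refine ⟨χ', by rw [h2, pow_succ]; congr 1; group, fun r => ?_⟩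
      rw [h3, (hw χ χ1 (by rw [e, h1]; simp)).1, Chr.ev_comp, Function.iterate_succ_apply', RS.ρ_inv]
  rcases orders w with h1 | h1 | h1
  · refine Or.inl fun a ha => h.inj ?_
    obtain ⟨χ, e⟩ := hA a ha
    obtain ⟨χ', h2, h3⟩ := key 8 a ha χ e
    rw [← h2, ← e, f4Cert.chr_ext (χ := χ') (ψ := χ) fun r => by rw [h3, h1]]
  · refine Or.inr (Or.inl fun a ha => h.inj ?_)
    obtain ⟨χ, e⟩ := hA a ha
    obtain ⟨χ', h2, h3⟩ := key 6 a ha χ e
    rw [← h2, ← e, f4Cert.chr_ext (χ := χ') (ψ := χ) fun r => by rw [h3, h1]]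
  · refine Or.inr (Or.inr fun a ha => h.inj ?_)
    obtain ⟨χ, e⟩ := hA a ha
    obtain ⟨χ', h2, h3⟩ := key 6 a ha χ e
    rw [← h2, map_inv, ← e, ← map_inv, f4Cert.chr_ext (χ := χ') (ψ := χ⁻¹) fun r => by
      rw [h3, h1, RS.ρ_neg, Chr.ev_neg, Chr.ev_inv]]

theorem Emb.act24 (h : Emb ι) {A : Set H} (hA : ∀ a ∈ A, ι a ∈ (f4Cert.full E).T) {g : H}
    (hg : ∀ a ∈ A, g * a * g⁻¹ ∈ A) : ∀ a ∈ A, Commute (g ^ 24) a := fun a ha => by
  rcases h.act hA hg with h1 | h1 | h1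
  · exact (show Commute (g ^ 8) a from mul_inv_eq_iff_eq_mul.1 (h1 a ha)).pow_left 3 |> (pow_mul g 8 3 ▸ ·)
  · exact (show Commute (g ^ 6) a from mul_inv_eq_iff_eq_mul.1 (h1 a ha)).pow_left 4 |> (pow_mul g 6 4 ▸ ·)
  · have : g ^ 12 * a * (g ^ 12)⁻¹ = a := by
      calc _ = g ^ 6 * (g ^ 6 * a * (g ^ 6)⁻¹) * (g ^ 6)⁻¹ := by group
        _ = g ^ 6 * a⁻¹ * (g ^ 6)⁻¹ := by rw [h1 a ha]
        _ = (g ^ 6 * a * (g ^ 6)⁻¹)⁻¹ := by group
        _ = _ := by rw [h1 a ha, inv_inv]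
    exact (show Commute (g ^ 12) a from mul_inv_eq_iff_eq_mul.1 this).pow_left 2 |> (pow_mul g 12 2 ▸ ·)

variable [Finite E]

theorem Emb.tor (h : Emb ι) {l : ℕ} [Fact l.Prime] (hl : 5 ≤ l) {ζ : Eˣ} (hζ : IsPrimitiveRoot ζ (l ^ 2))
    {P : Subgroup H} (hP : IsPGroup l P) :
    ∃ y ∈ chevF4.group E, ∀ x ∈ P, y * ι x * y⁻¹ ∈ (f4Cert.full E).T := by
  obtain ⟨y, h1, h2⟩ := sylow hl hζ T_le le_rfl (hP.map ι) (by rintro _ ⟨x, -, rfl⟩; exact h.mem x)
  exact ⟨y, h1, fun x hx => h2 _ ⟨x, hx, rfl⟩⟩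

theorem Emb.comm (h : Emb ι) {l : ℕ} [Fact l.Prime] (hl : 5 ≤ l) {ζ : Eˣ} (hζ : IsPrimitiveRoot ζ (l ^ 2))
    (P : Subgroup H) (hP : IsPGroup l P) (a b : P) : Commute a b := by
  obtain ⟨y, h1, h2⟩ := h.tor hl hζ hP
  refine Subtype.ext ((h.conj h1).inj ?_)
  simp only [coe_mul, map_mul]
  exact (f4Cert.T_comm (h2 a a.2) (h2 b b.2)).eq

variable [Finite H] {G : Type*} [Group G] {π : H →* G}

theorem Emb.not_eleven (h : Emb ι) {ζ : Eˣ} (hζ : IsPrimitiveRoot ζ (11 ^ 2)) {J : Perm (Fin 11) →* G}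
    (hJ : Function.Injective J) (surj : ∀ σ, Perm.sign σ = 1 → ∃ g, π g = J σ) : False := by
  haveI := Fact.mk (show Nat.Prime 11 by norm_num)
  obtain ⟨x, hx⟩ := surj (finRotate 11) (by decide +kernel)
  obtain ⟨g, hg⟩ := surj (swap 1 4 * swap 1 5 * swap 1 9 * swap 1 3 * (swap 2 8 * swap 2 10 * swap 2 7 * swap 2 6))
    (by decide +kernel)
  obtain ⟨y, g', h1, h2, h3⟩ := exists_eigen_elt (π := π) (l := 11) (j := 3) (x₀ := x) (g₀ := g)
    (h.comm (by norm_num) hζ)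
    (by rw [hx, ← map_pow, ← map_one J]; exact congrArg J (by decide +kernel))
    (by rw [hx, Ne, map_eq_one_iff _ hJ]; decide +kernel)
    (by rw [hx, hg, ← map_pow, ← map_inv, ← map_mul, ← map_mul]; exact congrArg J (by decide +kernel))
  obtain ⟨z, h4, h5⟩ := h.tor (by norm_num) hζ (isPGroup_zpowers (k := 1) h2)
  have h6 := (h.conj h4).act24 (A := zpowers y) h5 (g := g') (by
    rintro _ ⟨i, rfl⟩
    rw [← conj_zpow, h3]; exact zpow_mem (npow_mem_zpowers ..) _) y (mem_zpowers y)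
  have h7 := conj_pow_iter h3 24
  rw [h6.eq, mul_inv_cancel_right, pow_eq_pow_mod _ h2] at h7
  have h8 : y ^ 3 = 1 := by rw [← mul_left_inj y, one_mul, ← pow_succ]; exact h7.symm
  exact h1 ((pow_eq_one_iff_of_coprime (show Nat.Coprime 3 11 by norm_num)).1 ⟨h8, h2⟩)

theorem Emb.not_twelve (h : Emb ι) {ζ ξ : Eˣ} (hζ : IsPrimitiveRoot ζ (5 ^ 2)) (hξ : IsPrimitiveRoot ξ (7 ^ 2))
    {J : Perm (Fin 12) →* G} (hJ : Function.Injective J) (surj : ∀ σ, Perm.sign σ = 1 → ∃ g, π g = J σ) : False := by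
  haveI := Fact.mk (show Nat.Prime 5 by norm_num)
  haveI := Fact.mk (show Nat.Prime 7 by norm_num)
  let a : Perm (Fin 12) := swap 0 4 * swap 0 3 * swap 0 2 * swap 0 1
  let b : Perm (Fin 12) := swap 5 11 * swap 5 10 * swap 5 9 * swap 5 8 * swap 5 7 * swap 5 6
  let c : Perm (Fin 12) := swap 1 3 * swap 1 4 * swap 1 2 * (swap 6 10 * swap 6 9 * swap 6 11 * swap 6 7 * swap 6 8)
  obtain ⟨x, hx⟩ := surj a (by decide +kernel)
  obtain ⟨y, hy⟩ := surj b (by decide +kernel)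
  obtain ⟨g, hg⟩ := surj c (by decide +kernel)
  have e1 : J a ^ 5 = 1 := by rw [← map_pow, ← map_one J]; exact congrArg J (by decide +kernel)
  have e2 : J b ^ 7 = 1 := by rw [← map_pow, ← map_one J]; exact congrArg J (by decide +kernel)
  have e3 : J c * J a * (J c)⁻¹ = J a ^ 2 := by
    rw [← map_pow, ← map_inv, ← map_mul, ← map_mul]; exact congrArg J (by decide +kernel)
  have e4 : J c * J b * (J c)⁻¹ = J b ^ 3 := by
    rw [← map_pow, ← map_inv, ← map_mul, ← map_mul]; exact congrArg J (by decide +kernel)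
  have e5 : J b * J a * (J b)⁻¹ = J a ^ 1 := by
    rw [← map_pow, ← map_inv, ← map_mul, ← map_mul]; exact congrArg J (by decide +kernel)
  obtain ⟨x, -, hx', h4⟩ := exists_PE_lift (π := π) (l := 5) (y := x) (by rw [hx, e1])
  rw [hx] at hx'
  -- adjusting elements so that they normalise a Sylow subgroup
  have adj : ∀ {l : ℕ} [Fact l.Prime] (C : Subgroup H) {x : H} (hx : x ∈ C) (_ : PE l x), ∃ P : Subgroup H,
      IsPGroup l P ∧ x ∈ P ∧ P ≤ C ∧ ∀ g (j : ℕ), (∀ c ∈ C, g * c * g⁻¹ ∈ C) → π g * π x * (π g)⁻¹ = π x ^ j →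
        ∃ κ ∈ C, π κ = 1 ∧ ∀ y ∈ P, κ * g * y * (κ * g)⁻¹ ∈ P := fun C x hx h => by
    obtain ⟨P, h5, h6, h7, h8⟩ := exists_syl_lift π C hx h
    refine ⟨P, h5, h6, h7.trans inf_le_left, fun g j hC h3 => ?_⟩
    obtain ⟨κ, h9, h10, h11⟩ := h8 (P.map (MulAut.conj g).toMonoidHom) (by
      rintro _ ⟨y, hy, rfl⟩
      obtain ⟨i, hi⟩ := (h7 hy).2
      refine ⟨hC _ (h7 hy).1, ?_⟩
      have : π g * π y * (π g)⁻¹ ∈ zpowers (π x) := by
        rw [← hi, ← conj_zpow, h3]; exact zpow_mem (npow_mem_zpowers ..) _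
      simpa using this) (h5.map _)
    exact ⟨κ, h9, h10, fun y hy => by simpa [mul_assoc] using h11 _ (mem_map_of_mem _ hy)⟩
  obtain ⟨P, a1, a2, -, a3⟩ := adj ⊤ (mem_top x) h4
  obtain ⟨κ, -, a4, a5⟩ := a3 g 2 (fun _ _ => mem_top _) (by rw [hg, hx', e3])
  obtain ⟨κ', -, a6, a7⟩ := a3 y 1 (fun _ _ => mem_top _) (by rw [hy, hx', e5])
  have a8 : π (κ * g) = J c := by rw [map_mul, a4, hg, one_mul]
  have a9 : π (κ' * y) = J b := by rw [map_mul, a6, hy, one_mul]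
  generalize κ * g = g at a5 a8
  generalize κ' * y = y at a7 a9
  obtain ⟨z, b1, b2⟩ := h.tor (by norm_num) hζ a1
  replace h := h.conj b1
  have b3 := h.act24 (A := P) b2 a7
  obtain ⟨y', ⟨i, rfl⟩, b4, n, b5⟩ := exists_PE_lift (π := π) (l := 7) (y := y) (by rw [a9, e2])
  rw [a9] at b4
  have b6 : (fun n : ℤ => y ^ n) i ∈ centralizer (P : Set H) := by
    have b7 : ((fun n : ℤ => y ^ n) i) ^ 24 ∈ centralizer (P : Set H) := fun p hp => by
      have := ((b3 p hp).zpow_left i).eq.symm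
      rwa [← zpow_natCast, ← zpow_mul, mul_comm, zpow_mul, zpow_natCast] at this
    obtain ⟨u, -, hu⟩ := Nat.exists_mul_mod_eq_one_of_coprime (k := 7 ^ (n + 1)) (n := 24)
      (Nat.Coprime.pow_right _ (by norm_num)) (Nat.one_lt_pow (by omega) (by norm_num))
    have b8 := pow_mem b7 u
    have b9 : ((fun n : ℤ => y ^ n) i) ^ 7 ^ (n + 1) = 1 := by rw [pow_succ, pow_mul, b5, one_pow]
    rwa [← pow_mul, pow_eq_pow_mod _ b9, hu, pow_one] at b8
  generalize (fun n : ℤ => y ^ n) i = y at b4 b5 b6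
  have b7 : g ∈ normalizer (P : Set H) := mem_normalizer_fintype a5
  obtain ⟨Q, c1, c2, c3, c4⟩ := adj (l := 7) (centralizer P) b6 ⟨n, b5⟩
  obtain ⟨κ, c5, c6, c7⟩ := c4 g 3 (fun c hc p hp => by
    have := hc _ ((mem_normalizer_iff''.1 b7 p).1 hp)
    calc p * (g * c * g⁻¹) = g * (g⁻¹ * p * g * c) * g⁻¹ := by group
      _ = _ := by rw [this]; group) (by rw [a8, b4, e4])
  have c8 : ∀ p ∈ P, κ * g * p * (κ * g)⁻¹ ∈ P := fun p hp => by
    rw [show κ * g * p * (κ * g)⁻¹ = κ * (g * p * g⁻¹) * κ⁻¹ by group, ← c5 _ (a5 p hp), mul_inv_cancel_right]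
    exact a5 p hp
  have c9 : π (κ * g) = J c := by rw [map_mul, c6, a8, one_mul]
  generalize κ * g = g at c7 c8 c9
  replace b2 : ∀ p ∈ P, (MulAut.conj z).toMonoidHom.comp ι p ∈ (f4Cert.full E).T := b2
  generalize (MulAut.conj z).toMonoidHom.comp ι = ι at h b2
  obtain ⟨z, ⟨d1, d2⟩, d3⟩ := sylow (by norm_num) hξ (C := chevF4.group E ⊓ centralizer (P.map ι))
    (le_inf T_le (by rintro t ht _ ⟨p, hp, rfl⟩; exact (f4Cert.T_comm (b2 p hp) ht).eq)) inf_le_left (c1.map ι) (by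
      rintro _ ⟨q, hq, rfl⟩
      refine ⟨h.mem q, ?_⟩
      rintro _ ⟨p, hp, rfl⟩
      rw [← map_mul, c3 hq p hp, map_mul])
  have d4 := (h.conj d1).act (A := P ∪ Q) (g := g) (by
    rintro a (ha | ha)
    · change z * ι a * z⁻¹ ∈ _
      rw [← d2 _ ⟨a, ha, rfl⟩, mul_inv_cancel_right]; exact b2 a ha
    · exact d3 _ ⟨a, ha, rfl⟩) (by
    rintro a (ha | ha)
    exacts [Or.inl (c8 a ha), Or.inr (c7 a ha)])
  rcases d4 with d4 | d4 | d4
  · have := congrArg π (d4 y (Or.inr c2))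
    simp only [map_mul, map_inv, map_pow, c9, b4] at this
    simp only [← map_mul, ← map_inv, ← map_pow, hJ.eq_iff] at this
    exact absurd this (by decide +kernel)
  · have := congrArg π (d4 x (Or.inl a2))
    simp only [map_mul, map_inv, map_pow, c9, hx'] at this
    simp only [← map_mul, ← map_inv, ← map_pow, hJ.eq_iff] at this
    exact absurd this (by decide +kernel)
  · have := congrArg π (d4 y (Or.inr c2))
    simp only [map_mul, map_inv, map_pow, c9, b4] at this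
    simp only [← map_mul, ← map_inv, ← map_pow, hJ.eq_iff] at this
    exact absurd this (by decide +kernel)

omit [Finite E] [Finite H] in
theorem emb_map {F : Type*} [Field F] (f : F →+* E) {j : H →* GL chevF4.Idx F} (hj : Function.Injective j)
    (h : ∀ x, j x ∈ chevF4.group F) : Emb ((Matrix.GeneralLinearGroup.map f).comp j) := by
  refine ⟨fun a b e => hj (Units.ext ?_), fun x => f4Cert.map_mem f (h x)⟩
  exact Matrix.map_injective f.injective (congrArg Units.val e)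

end
end Cfsg.Agent.Lib.Chev.F4W
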