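import Cfsg.Agent.Lib.Chev.F4Alt
import Cfsg.Prelude.Def_LieTwisted

/-! The special isogeny of F₄ in characteristic two; elements of order seven in the large Ree groups. -/

set_option autoImplicit false
set_option maxHeartbeats 400000
set_option maxRecDepth 100000

namespace Cfsg.Agent.Lib.Chev
open Matrix Cfsg.Lie Cfsg.Agent.Lib.Forms Cfsg.Agent.Lib.Core Subgroup Equiv
open scoped MatrixGroups

noncomputable section

def eqv2 (v w : Vec) : Bool :=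
  lall (fun e => ibeq (Int.emod (Int.sub (coef e.1 e.2.2.1 e.2.2.2 v) (coef e.1 e.2.2.1 e.2.2.2 w)) 2) 0) (v ++ w)

lemma ev_eq_of_eqv2 {ι : Type} (enc : ι → ℕ) {F : Type*} [CommRing F] [CharP F 2] (t u : F) {v w : Vec}
    (h : eqv2 v w = true) : ev enc t u v = ev enc t u w := by
  unfold eqv2 at h
  rw [lall_iff] at h
  funext a
  let K := ((v ++ w).map fun e => (e.1, e.2.2)).toFinset
  rw [ev_eq_sum enc t u v K (fun e he => by simp only [K, List.mem_toFinset]; exact List.mem_map_of_mem (by simp [he])),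
    ev_eq_sum enc t u w K (fun e he => by simp only [K, List.mem_toFinset]; exact List.mem_map_of_mem (by simp [he]))]
  refine Finset.sum_congr rfl fun k hk => ?_
  simp only [K, List.mem_toFinset, List.mem_map] at hk
  obtain ⟨e, he, rfl⟩ := hk
  have h1 : (2 : ℤ) ∣ coef e.1 e.2.2.1 e.2.2.2 v - coef e.1 e.2.2.1 e.2.2.2 w :=
    Int.dvd_of_emod_eq_zero ((ibeq_iff _ _).1 (h e he))
  have : (coef e.1 e.2.2.1 e.2.2.2 v : F) = coef e.1 e.2.2.1 e.2.2.2 w := by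
    rw [← sub_eq_zero, ← Int.cast_sub, CharP.intCast_eq_zero_iff F 2]; exact h1
  simp only [this]

lemma Rep.eq2 {ι : Type} {enc : ι → ℕ} {F : Type*} [CommRing F] [CharP F 2] {t u : F} [Fintype ι] [DecidableEq ι]
    (henc : Function.Injective enc) {M N : Matrix ι ι F} {f g : Vec → Vec}
    (hM : Rep enc t u M f) (hN : Rep enc t u N g)
    (h : ∀ b, eqv2 (f (e0 (enc b))) (g (e0 (enc b))) = true) : M = N := by
  ext a b
  rw [hM.apply henc, hN.apply henc, ev_eq_of_eqv2 enc t u (h b)]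

namespace F4W

abbrev K : Cert chevF4 := f4Cert
abbrev Rt := Fin chevF4.nroots
abbrev Ix := chevF4.Idx

def rt (n : ℕ) : Rt := ⟨n % 48, Nat.mod_lt _ (by decide)⟩
def ix (n : ℕ) : Ix := if n < 48 then Sum.inr (rt n) else Sum.inl ⟨n % 4, Nat.mod_lt _ (by decide)⟩
def θN (n : ℕ) : ℕ := [3, 7, 8, 0, 9, 11, 18, 1, 2, 4, 15, 5, 16, 21, 23, 10, 12, 19, 6, 17, 22, 13, 20, 14, 33, 27, 34, 25, 30, 41, 28, 35, 37, 24, 26, 31, 42, 32, 43, 45, 46, 29, 36, 38, 47, 39, 40, 44, 51, 50, 49, 48].getD n 0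
def br (r : Rt) : Rt := rt (θN r)
def θ (a : Ix) : Ix := ix (θN (enc chevF4 a))
def s (i : Fin 26) : Ix := ix ([3, 7, 8, 9, 10, 11, 12, 13, 14, 18, 19, 20, 27, 28, 29, 33, 34, 35, 36, 37, 38, 39, 40, 44, 48, 49].getD i 0)
def Sh (a : Ix) : Prop := ∃ i, s i = a
instance : DecidablePred Sh := fun a => inferInstanceAs (Decidable (∃ i, s i = a))
def lam (r : Rt) : ℕ := [1, 1, 1, 2, 1, 1, 1, 2, 2, 2, 2, 2, 2, 2, 2, 1, 1, 1, 2, 2, 2, 1, 1, 1, 1, 1, 1, 2, 2, 2, 1, 1, 1, 2, 2, 2, 2, 2, 2, 2, 2, 1, 1, 1, 2, 1, 1, 1].getD r 0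
def LΘ : List Col := [[(3, 1, 0)], [(7, 1, 0)], [(8, 1, 0)], [], [(9, 1, 0)], [(11, 1, 0)], [(18, 1, 0)], [], [], [], [], [], [], [], [], [(10, 1, 0)], [(12, 1, 0)], [(19, 1, 0)], [], [], [], [(13, 1, 0)], [(20, 1, 0)], [(14, 1, 0)], [(33, 1, 0)], [(27, 1, 0)], [(34, 1, 0)], [], [], [], [(28, 1, 0)], [(35, 1, 0)], [(37, 1, 0)], [], [], [], [], [], [], [], [], [(29, 1, 0)], [(36, 1, 0)], [(38, 1, 0)], [], [(39, 1, 0)], [(40, 1, 0)], [(44, 1, 0)], [], [], [(49, 1, 0)], [(48, 1, 0)]]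
def cΘ (b : ℕ) : Col := LΘ.getD b []
def wS (i j : ℕ) : ℕ := fld4 0x7777777789a989a88998889878988888788877887778888778877787776776676667777677667666666676566656655665466545 (4 * i + j)
def wL (i j : ℕ) : ℕ := fld4 0x777777779ab98ab989b9899989978899889788778777789978977877767776577655677766776657665565576555653564355435 (4 * i + j)

lemma s_inj : Function.Injective s := by decide +kernel
lemma θ_θ : ∀ a, θ (θ a) = a := by decide +kernel
lemma sh_θ : ∀ a, Sh (θ a) ↔ ¬ Sh a := by decide +kernel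
lemma cΘ_eq : ∀ b, cΘ (enc chevF4 b) = if Sh b then [] else [(enc chevF4 (θ b), 1, 0)] := by decide +kernel
lemma wS_eq : ∀ (i : Fin 26) (j : Fin chevF4.rank), (wS i j : ℤ) = K.wt (s i) j + 7 := by decide +kernel
lemma wL_eq : ∀ (i : Fin 26) (j : Fin chevF4.rank), (wL i j : ℤ) = K.wt (θ (s i)) j + 7 := by decide +kernel
lemma cΘ_valid (b : ℕ) (h : ∀ a, enc chevF4 a ≠ b) : cΘ b = [] :=
  List.getD_eq_default _ _ (le_of_not_enc chevF4 h)

def nsum (f : ℕ → ℕ) (n : ℕ) : ℕ := Nat.rec 0 (fun i ih => Nat.add ih (f i)) n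

lemma nsum_eq (f : ℕ → ℕ) (n : ℕ) : ∑ i : Fin n, f i = nsum f n := by
  induction n with
  | zero => rfl
  | succ n ih => rw [Fin.sum_univ_castSucc]; exact congrArg (· + f n) ih

def ex (w : ℕ → ℕ → ℕ) (k a b c d : ℕ) : ℕ :=
  nsum (fun i => 32 ^ (k * (a * w i 0 + b * w i 1 + c * w i 2 + d * w i 3) % 7)) 26

def cSeven : Bool := nall (fun a => nall (fun b => nall (fun c => nall (fun d =>
  !(Nat.beq (ex wS 2 a b c d) (ex wS 1 a b c d)) || Nat.beq (a + b + c + d) 0 ||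
    nall (fun k => Nat.beq k 0 || !(Nat.beq (ex wS k a b c d) (ex wL 1 a b c d))) 7) 7) 7) 7) 7

theorem seven : cSeven = true := by decide +kernel

variable (F : Type*) [Field F]

def Θ : Matrix Ix Ix F := Mat (enc chevF4) cΘ 1

variable {F}

lemma Θ_apply (a b : Ix) : Θ F a b = if ¬ Sh b ∧ a = θ b then 1 else 0 := by
  simp only [Θ, Mat, Matrix.of_apply, cΘ_eq]
  by_cases h : Sh b
  · simp [h]
  · simp [h, (enc_inj chevF4).eq_iff, eq_comm]

lemma Θ_mul (M : Matrix Ix Ix F) {a : Ix} (ha : ¬ Sh a) (b : Ix) : (Θ F * M) (θ a) b = M a b := by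
  rw [Matrix.mul_apply, Finset.sum_eq_single a]
  · simp [Θ_apply, ha]
  · intro c _ hc
    rw [Θ_apply, if_neg, zero_mul]
    rintro ⟨-, h⟩
    exact hc (by rw [← θ_θ c, ← h, θ_θ])
  · simp

lemma mul_Θ (M : Matrix Ix Ix F) (a b : Ix) : (M * Θ F) a b = if Sh b then 0 else M a (θ b) := by
  rw [Matrix.mul_apply]
  split_ifs with h
  · simp [Θ_apply, h]
  · simp [Θ_apply, h]

lemma rep_Θ (t u : F) : Rep (enc chevF4) t u (Θ F) (appM cΘ 1 0 0) := by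
  simpa [Θ] using rep_appM (t := t) (u := u) (enc_inj chevF4) cΘ_valid 1 0 0

lemma rep_x (t u : F) (r : Rt) (i j : ℕ) :
    Rep (enc chevF4) t u (K.x r (t ^ i * u ^ j) : GL Ix F) (appU (K.nil r) 1 i j) := by
  simpa using K.rep_x t u r 1 i j

variable [CharP F 2]

lemma Θ_x (r : Rt) (t : F) : Θ F * (K.x r t : GL Ix F) = (K.x (br r) (t ^ lam r) : GL Ix F) * Θ F := by
  have h : ∀ r : Rt, ∀ b : Ix, eqv2 (appM cΘ 1 0 0 (appU (K.nil r) 1 1 0 (e0 (enc _ b))))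
      (appU (K.nil (br r)) 1 (lam r) 0 (appM cΘ 1 0 0 (e0 (enc _ b)))) = true := by decide +kernel
  have := Rep.eq2 (enc_inj _) ((rep_Θ t 1).mul (rep_x t 1 r 1 0)) ((rep_x t 1 (br r) (lam r) 0).mul (rep_Θ t 1)) (h r)
  simpa using this

lemma x_comm2 (r q : Rt) (h : ∀ b : Ix, eqv2 (appU (K.nil r) 1 1 0 (appU (K.nil q) 1 0 1 (e0 (enc _ b))))
    (appU (K.nil q) 1 0 1 (appU (K.nil r) 1 1 0 (e0 (enc _ b)))) = true) (t u : F) :
    K.x r t * K.x q u = K.x q u * K.x r t := by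
  have := Rep.eq2 (enc_inj _) ((rep_x t u r 1 0).mul (rep_x t u q 0 1)) ((rep_x t u q 0 1).mul (rep_x t u r 1 0)) h
  exact Units.ext (by simpa using this)

lemma x_rel (a b c d : Rt) (h : ∀ i : Ix, eqv2 (appU (K.nil b) 1 0 1 (appU (K.nil a) 1 1 0 (e0 (enc _ i))))
    (appU (K.nil a) 1 1 0 (appU (K.nil b) 1 0 1 (appU (K.nil c) 1 1 1 (appU (K.nil d) 1 2 1 (e0 (enc _ i)))))) = true)
    (t u : F) : K.x b u * K.x a t = K.x a t * (K.x b u * (K.x c (t * u) * K.x d (t ^ 2 * u))) := by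
  have := Rep.eq2 (enc_inj _) ((rep_x t u b 0 1).mul (rep_x t u a 1 0))
    ((rep_x t u a 1 0).mul ((rep_x t u b 0 1).mul ((rep_x t u c 1 1).mul (rep_x t u d 2 1)))) h
  exact Units.ext (by simpa using this)

variable (F) in
/-- the graph of the special isogeny -/
def Λ : Subgroup (GL Ix F × GL Ix F) where
  carrier := {p | Θ F * p.1.val = p.2.val * Θ F}
  one_mem' := by simp
  mul_mem' := by
    intro a b (a1 : _ = _) (b1 : _ = _)
    change _ = _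
    simp only [Prod.fst_mul, Prod.snd_mul, Units.val_mul]
    rw [← Matrix.mul_assoc, a1, Matrix.mul_assoc, b1, Matrix.mul_assoc]
  inv_mem' := by
    intro a (a1 : _ = _)
    change _ = _
    simp only [Prod.fst_inv, Prod.snd_inv]
    calc _ = (a.2⁻¹).val * (a.2.val * Θ F) * (a.1⁻¹).val := by rw [Units.inv_mul_cancel_left]
      _ = _ := by rw [← a1, ← Matrix.mul_assoc, Units.mul_inv_cancel_right]

lemma x_Λ (r : Rt) (t : F) : (K.x r t, K.x (br r) (t ^ lam r)) ∈ Λ F := Θ_x r t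

lemma exists_Λ {y : GL Ix F} (hy : y ∈ chevF4.group F) : ∃ y' ∈ chevF4.group F, (y, y') ∈ Λ F := by
  obtain ⟨⟨y, y'⟩, ⟨h1, h2⟩, rfl⟩ := K.le_of_simple ((Λ F ⊓ (chevF4.group F).comap (.snd _ _)).map (.fst _ _))
    (fun i t => ⟨_, ⟨x_Λ _ t, K.x_mem _ _⟩, rfl⟩) (fun i t => ⟨_, ⟨x_Λ _ t, K.x_mem _ _⟩, rfl⟩) hy
  exact ⟨y', h2, h1⟩

lemma preserve {y : GL Ix F} (hy : y ∈ chevF4.group F) {a b : Ix} (ha : ¬ Sh a) (hb : Sh b) : y.val a b = 0 := by
  obtain ⟨y', -, h : _ = _⟩ := exists_Λ hy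
  rw [← Θ_mul y.val ha b, h, mul_Θ, if_pos hb]

lemma exists_perm {z : GL Ix F} (hz : z ∈ chevF4.group F) (d d' : Fin 26 → F)
    (h : ∀ i j, d i * z.val (s i) (s j) = z.val (s i) (s j) * d' j) : ∃ τ : Perm (Fin 26), ∀ j, d (τ j) = d' j := by
  have h1 : z.val.submatrix s s * (z⁻¹).val.submatrix s s = 1 := by
    ext i j
    have h2 : (z.val * (z⁻¹).val) (s i) (s j) = (1 : Matrix (Fin 26) (Fin 26) F) i j := by
      rw [Units.mul_inv]; simp [Matrix.one_apply, s_inj.eq_iff]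
    rw [← h2, Matrix.mul_apply, Matrix.mul_apply]
    refine Finset.sum_of_injOn s s_inj.injOn (fun _ _ => Finset.mem_univ _) (fun c _ hc => ?_) fun _ _ => rfl
    rw [preserve (inv_mem hz) (fun ⟨k, hk⟩ => hc ⟨k, Finset.mem_univ k, hk⟩) ⟨j, rfl⟩, mul_zero]
  have h2 := (Matrix.isUnit_det_of_right_inverse h1).ne_zero
  rw [Matrix.det_apply] at h2
  obtain ⟨τ, -, h3⟩ := Finset.exists_ne_zero_of_sum_ne_zero h2
  refine ⟨τ, fun j => ?_⟩
  have h4 : z.val (s (τ j)) (s j) ≠ 0 :=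
    Finset.prod_ne_zero_iff.1 (right_ne_zero_of_smul h3) j (Finset.mem_univ j)
  exact mul_right_cancel₀ h4 (by rw [h, mul_comm])

theorem no_seven {m : ℕ} {ξ : Fˣ} (hξ : IsPrimitiveRoot ξ 7) {x g y : GL Ix F} (hg : g ∈ chevF4.group F)
    (hy : y ∈ chevF4.group F) (hT : y * x * y⁻¹ ∈ (K.full F).T) (h7 : x ^ 7 = 1) (h2 : g * x * g⁻¹ = x ^ 2)
    (hΛ : (x, GeneralLinearGroup.map (iterateFrobenius F 2 m) x) ∈ Λ F) : x = 1 := by
  obtain ⟨χ, hχ⟩ := hT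
  have a1 : χ ^ 7 = 1 := K.h_inj (by rw [map_pow, hχ, conj_pow, h7, map_one]; simp)
  have a2 : ∀ j, ∃ c < 7, ξ ^ c = χ.ev (Pi.single j 1) := fun j => by
    obtain ⟨c, h1, h3⟩ := (IsPrimitiveRoot.coe_units_iff.2 hξ).eq_pow_of_pow_eq_one (ξ := (χ.ev (Pi.single j 1) : F))
      (by rw [← Units.val_pow_eq_pow_val, ← Chr.ev_pow, a1]; rfl)
    exact ⟨c, h1, Units.ext h3⟩
  choose c a3 a4 using a2
  have a5 : ∀ (v : Fin chevF4.rank → ℤ) (w : ℕ → ℕ), (∀ j, (w j.val : ℤ) = v j + 7) → χ.ev v =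
      ξ ^ (c (0 : Fin 4) * w 0 + c (1 : Fin 4) * w 1 + c (2 : Fin 4) * w 2 + c (3 : Fin 4) * w 3) := fun v w h => by
    rw [show χ = Chr.mk fun j => ξ ^ c j from Chr.ext' fun j => by rw [Chr.ev_mk_single, a4], Chr.ev_mk,
      show c (0 : Fin 4) * w 0 + c (1 : Fin 4) * w 1 + c (2 : Fin 4) * w 2 + c (3 : Fin 4) * w 3 =
        ∑ j, c j * w j.val from (Fin.sum_univ_four fun j => c j * w j.val).symm, ← Finset.prod_pow_eq_pow_sum]
    refine Finset.prod_congr rfl fun j _ => ?_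
    rw [show v j = w j.val - (7 : ℕ) by rw [h]; simp, _root_.zpow_sub, zpow_natCast, zpow_natCast, ← pow_mul, ← pow_mul,
      mul_comm (c j) 7, pow_mul _ 7, hξ.pow_eq_one]
    simp
  have a6 : ∀ a b : ℕ, (ξ : F) ^ a = ξ ^ b → a % 7 = b % 7 := fun a b h => by
    rw [hξ.eq_orderOf]; exact pow_eq_pow_iff_modEq.1 (Units.ext h)
  obtain ⟨τ, b1⟩ := exists_perm (z := y * g * y⁻¹) (mul_mem (mul_mem hy hg) (inv_mem hy))
    (fun i => (χ.ev (K.wt (s i)) : F) ^ 2) (fun i => χ.ev (K.wt (s i))) fun i j => by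
      have : K.h (χ ^ 2) * (y * g * y⁻¹) = y * g * y⁻¹ * K.h χ := by rw [map_pow, hχ, conj_pow, ← h2]; group
      have := congrArg (fun g : GL Ix F => g.val (s i) (s j)) this
      simpa only [Units.val_mul (K.h _), Units.val_mul _ (K.h _), Cert.h_val, diagonal_mul, mul_diagonal,
        Chr.ev_pow, Units.val_pow_eq_pow_val] using this
  obtain ⟨y', b2, b3⟩ := exists_Λ hy
  let σ := iterateFrobenius F 2 m
  let φ : GL Ix F →* GL Ix F := GeneralLinearGroup.map σ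
  obtain ⟨τ', b4⟩ := exists_perm (z := φ y * y'⁻¹) (mul_mem (K.map_mem σ hy) (inv_mem b2))
    (fun i => (χ.ev (K.wt (s i)) : F) ^ 2 ^ m) (fun i => χ.ev (K.wt (θ (s i)))) fun i j => by
      have b5 : Θ F * (y * x * y⁻¹).val = (y' * φ x * y'⁻¹).val * Θ F := mul_mem (mul_mem b3 hΛ) (inv_mem b3)
      have b6 : K.h (χ.map σ) * (φ y * y'⁻¹) = φ y * y'⁻¹ * (y' * φ x * y'⁻¹) := by
        rw [← K.map_h, hχ]; change φ _ * _ = _; simp only [map_mul, map_inv]; group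
      have b7 : (K.h (χ.map σ)).val * ((φ y * y'⁻¹).val * Θ F) = (φ y * y'⁻¹).val * Θ F * (K.h χ).val := by
        rw [hχ, Matrix.mul_assoc _ (Θ F), b5, ← Matrix.mul_assoc, ← Matrix.mul_assoc, ← Units.val_mul, b6,
          Units.val_mul]
      have b8 := congrFun (congrFun b7 (s i)) (θ (s j))
      have b9 : ¬ Sh (θ (s j)) := fun h => (sh_θ _).1 h ⟨j, rfl⟩
      rwa [Cert.h_val, Cert.h_val, diagonal_mul, mul_diagonal, mul_Θ, if_neg b9, θ_θ] at b8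
  have c1 := seven
  unfold cSeven at c1
  simp only [nall_iff, Bool.or_eq_true, Bool.not_eq_true', ← Bool.not_eq_true, Nat.beq_eq] at c1
  rcases c1 _ (a3 (0 : Fin 4)) _ (a3 (1 : Fin 4)) _ (a3 (2 : Fin 4)) _ (a3 (3 : Fin 4)) with (c1 | c1) | c1
  · refine absurd ?_ c1
    unfold ex
    rw [← nsum_eq, ← nsum_eq, ← Equiv.sum_comp τ]
    refine Finset.sum_congr rfl fun i _ => congrArg _ (a6 _ _ ?_)
    have := b1 i
    rw [a5 _ _ (wS_eq _), a5 _ _ (wS_eq _)] at this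
    rw [one_mul, mul_comm, pow_mul]; exact this
  · have c2 : ∀ j, c j = 0 := fun j => Finset.sum_eq_zero_iff.1 ((Fin.sum_univ_four c).trans c1) j (Finset.mem_univ j)
    have c3 : χ = 1 := Chr.ext' fun j => by rw [← a4, c2, pow_zero]; rfl
    rw [c3, map_one, eq_comm, mul_inv_eq_one, mul_eq_left] at hχ
    exact hχ
  · rcases c1 (2 ^ m % 7) (Nat.mod_lt _ (by norm_num)) with c1 | c1
    · exact absurd ((show Nat.Prime 7 by norm_num).dvd_of_dvd_pow (Nat.dvd_of_mod_eq_zero c1)) (by norm_num)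
    · refine absurd ?_ c1
      unfold ex
      rw [← nsum_eq, ← nsum_eq, ← Equiv.sum_comp τ']
      refine Finset.sum_congr rfl fun i _ => congrArg _ ?_
      rw [Nat.mod_mul_mod]
      refine a6 _ _ ?_
      have := b4 i
      rw [a5 _ _ (wS_eq _), a5 _ _ (wL_eq _)] at this
      rw [one_mul, mul_comm, pow_mul]; exact this

omit [CharP F 2] in
lemma x_nat (n : ℕ) (h : n < 48) (t : F) : chevF4.x F n t = (K.x (rt n) t : GL Ix F) := by
  rw [Cert.x_val', show (rt n).val = n from Nat.mod_eq_of_lt h]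

variable (F) in
def Fix (m : ℕ) : Subgroup (GL Ix F) :=
  (Λ F).comap ((MonoidHom.id _).prod (GeneralLinearGroup.map (iterateFrobenius F 2 m))) ⊓ chevF4.group F

lemma pair_mem {m : ℕ} (p q : Rt) (h1 : br p = q ∧ br q = p ∧ lam p = 2 ∧ lam q = 1)
    (h2 : ∀ t u : F, K.x q t * K.x p u = K.x p u * K.x q t) {t : F} (ht : (t ^ 2 ^ m) ^ 2 ^ (m + 1) = t) :
    K.x p (t ^ 2 ^ m) * K.x q t ∈ Fix F (m + 1) := by
  refine ⟨?_, mul_mem (K.x_mem _ _) (K.x_mem _ _)⟩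
  have := mul_mem (x_Λ p (t ^ 2 ^ m)) (x_Λ q t)
  rw [h1.1, h1.2.1, h1.2.2.1, h1.2.2.2, Prod.mk_mul_mk, h2, pow_one, ← pow_mul, ← pow_succ] at this
  refine Subgroup.mem_comap.2 ?_
  simpa only [MonoidHom.prod_apply, MonoidHom.id_apply, map_mul, K.map_x, iterateFrobenius_def, ht,
    Prod.mk_mul_mk] using this

lemma b2_mem {m : ℕ} (a b c d : Rt) (h1 : br a = b ∧ br b = a ∧ br c = d ∧ br d = c ∧ lam a = 2 ∧ lam b = 1 ∧
    lam c = 2 ∧ lam d = 1) (h2 : ∀ t u : F, K.x d t * K.x c u = K.x c u * K.x d t)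
    (h3 : ∀ t u : F, K.x b u * K.x a t = K.x a t * (K.x b u * (K.x c (t * u) * K.x d (t ^ 2 * u)))) {t u : F}
    (ht : (t ^ 2 ^ m) ^ 2 ^ (m + 1) = t) (hu : (u ^ 2 ^ m) ^ 2 ^ (m + 1) = u) :
    K.x a (t ^ 2 ^ m) * (K.x b t * (K.x c (t ^ (2 ^ m + 1) + u) * K.x d (u ^ (2 * 2 ^ m)))) ∈ Fix F (m + 1) := by
  refine ⟨?_, mul_mem (K.x_mem _ _) (mul_mem (K.x_mem _ _) (mul_mem (K.x_mem _ _) (K.x_mem _ _)))⟩
  obtain ⟨a1, a2, a3, a4, a5, a6, a7, a8⟩ := h1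
  have := mul_mem (x_Λ a (t ^ 2 ^ m)) (mul_mem (x_Λ b t) (mul_mem (x_Λ c (t ^ (2 ^ m + 1) + u)) (x_Λ d (u ^ (2 * 2 ^ m)))))
  simp only [a1, a2, a3, a4, a5, a6, a7, a8, Prod.mk_mul_mk, pow_one] at this
  rw [← mul_assoc (K.x b _) (K.x a _), h3, mul_assoc (K.x a t), mul_assoc (K.x b _) (K.x c _ * _),
    mul_assoc (K.x c _) (K.x d _), ← mul_assoc (K.x d _) (K.x d _), ← K.x_add, h2, ← mul_assoc (K.x c _) (K.x c _),
    ← K.x_add] at this
  have e1 : (t ^ 2 ^ m) ^ 2 = t ^ 2 ^ (m + 1) := by rw [← pow_mul, ← pow_succ]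
  have e2 : t * (t ^ 2 ^ m) ^ 2 + u ^ (2 * 2 ^ m) = (t ^ (2 ^ m + 1) + u) ^ 2 ^ (m + 1) := by
    rw [add_pow_char_pow, pow_succ t, mul_pow, ht, e1, pow_succ' 2 m]
  have e3 : t ^ 2 * (t ^ 2 ^ m) ^ 2 + (t ^ (2 ^ m + 1) + u) ^ 2 = (u ^ (2 * 2 ^ m)) ^ 2 ^ (m + 1) := by
    rw [mul_comm 2, pow_mul u, ← pow_mul _ 2, mul_comm 2, pow_mul, hu, CharTwo.add_sq, pow_succ t (2 ^ m), mul_pow,
      mul_comm, ← add_assoc, CharTwo.add_self_eq_zero, zero_add]
  rw [e2, e3, e1] at this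
  refine Subgroup.mem_comap.2 ?_
  simpa only [MonoidHom.prod_apply, MonoidHom.id_apply, map_mul, K.map_x, iterateFrobenius_def, ht,
    Prod.mk_mul_mk] using this

theorem twisted_le {k : Type*} [Field k] [Fintype k] {m : ℕ} (hk : Fintype.card k = 2 ^ (2 * m + 1)) (f : k →+* F) :
    twistedF4 k (2 ^ m) ≤ (Fix F (m + 1)).comap (GeneralLinearGroup.map f) := by
  have h0 : ∀ t : k, (f t ^ 2 ^ m) ^ 2 ^ (m + 1) = f t := fun t => by
    rw [← pow_mul, ← pow_add, ← map_pow, show m + (m + 1) = 2 * m + 1 by ring, ← hk, FiniteField.pow_card]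
  refine (Subgroup.closure_le _).2 ?_
  rintro g ⟨w, ⟨t, rfl | rfl⟩ | ⟨t, u, rfl | rfl⟩, hg⟩
  · rw [show g = K.x (rt 33) (t ^ 2 ^ m) * K.x (rt 24) t from Units.ext (by
      simp [hg, ChevalleyDatum.wordMat, f4PairWord, f4p1, f4p4, x_nat])]
    simpa only [Subgroup.coe_comap, Set.mem_preimage, SetLike.mem_coe, map_mul, K.map_x, map_pow] using
      pair_mem _ _ (by decide +kernel) (x_comm2 _ _ (by decide +kernel)) (h0 t)
  · rw [show g = K.x (rt 14) (t ^ 2 ^ m) * K.x (rt 23) t from Units.ext (by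
      simp [hg, ChevalleyDatum.wordMat, f4PairWord, f4m1, f4m4, x_nat])]
    simpa only [Subgroup.coe_comap, Set.mem_preimage, SetLike.mem_coe, map_mul, K.map_x, map_pow] using
      pair_mem _ _ (by decide +kernel) (x_comm2 _ _ (by decide +kernel)) (h0 t)
  · rw [show g = K.x (rt 27) (t ^ 2 ^ m) * (K.x (rt 25) t * (K.x (rt 28) (t ^ (2 ^ m + 1) + u) *
      K.x (rt 30) (u ^ (2 * 2 ^ m)))) from Units.ext (by
        simp [hg, ChevalleyDatum.wordMat, b2ClassWord, f4a, f4b, f4ab, f4aab, x_nat])]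
    simpa only [Subgroup.coe_comap, Set.mem_preimage, SetLike.mem_coe, map_mul, K.map_x, map_pow, map_add] using
      b2_mem _ _ _ _ (by decide +kernel) (x_comm2 _ _ (by decide +kernel)) (x_rel _ _ _ _ (by decide +kernel))
        (h0 t) (h0 u)
  · rw [show g = K.x (rt 20) (t ^ 2 ^ m) * (K.x (rt 22) t * (K.x (rt 19) (t ^ (2 ^ m + 1) + u) *
      K.x (rt 17) (u ^ (2 * 2 ^ m)))) from Units.ext (by
        simp [hg, ChevalleyDatum.wordMat, b2ClassWord, f4ma, f4mb, f4mab, f4maab, x_nat])]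
    simpa only [Subgroup.coe_comap, Set.mem_preimage, SetLike.mem_coe, map_mul, K.map_x, map_pow, map_add] using
      b2_mem _ _ _ _ (by decide +kernel) (x_comm2 _ _ (by decide +kernel)) (x_rel _ _ _ _ (by decide +kernel))
        (h0 t) (h0 u)

theorem Emb.not_seven [Finite F] {H G : Type*} [Group H] [Finite H] [Group G] {π : H →* G} {ι : H →* GL Ix F}
    (h : Emb ι) {m : ℕ} (hι : ∀ x, ι x ∈ Fix F m) {ζ : Fˣ} (hζ : IsPrimitiveRoot ζ (7 ^ 2)) {J : Perm (Fin 7) →* G}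
    (hJ : Function.Injective J) (surj : ∀ σ, Perm.sign σ = 1 → ∃ g, π g = J σ) : False := by
  haveI := Fact.mk (show Nat.Prime 7 by norm_num)
  obtain ⟨x, hx⟩ := surj (finRotate 7) (by decide +kernel)
  obtain ⟨g, hg⟩ := surj (swap 1 4 * swap 1 2 * (swap 3 5 * swap 3 6)) (by decide +kernel)
  obtain ⟨y, g', h1, h2, h3⟩ := exists_eigen_elt (π := π) (l := 7) (j := 2) (x₀ := x) (g₀ := g)
    (h.comm (by norm_num) hζ)
    (by rw [hx, ← map_pow, ← map_one J]; exact congrArg J (by decide +kernel))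
    (by rw [hx, Ne, map_eq_one_iff _ hJ]; decide +kernel)
    (by rw [hx, hg, ← map_pow, ← map_inv, ← map_mul, ← map_mul]; exact congrArg J (by decide +kernel))
  obtain ⟨z, h4, h5⟩ := h.tor (by norm_num) hζ (isPGroup_zpowers (k := 1) h2)
  exact h1 (h.inj (by
    rw [map_one]
    exact no_seven (hζ.pow (by norm_num) (pow_two 7)) (h.mem g') h4 (h5 y (mem_zpowers y))
      (by rw [← map_pow, h2, map_one]) (by rw [← map_pow, ← h3]; simp) (hι y).1))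

end F4W
end
end Cfsg.Agent.Lib.Chev
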