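import Cfsg.Agent.Lib.Chev.Tri

set_option autoImplicit false
set_option maxHeartbeats 400000

namespace Cfsg.Agent.Lib.Chev.Tri
open Matrix Cfsg.Lie Cfsg.Agent.Lib.Chev
open scoped MatrixGroups

noncomputable section
attribute [-instance] CStarMatrix.instHMulOfFintypeOfMulOfAddCommMonoid
variable {F : Type*} [Field F]

def LP : List Col := [[(0, -1, 0)], [(1, -1, 0)], [(2, -1, 0)], [], [(3, 1, 0)], [(4, 1, 0)], [], [], [], [(5, 1, 0)], [], [], [(7, 1, 0)], [], [(6, 1, 0)], [(8, -1, 0)], [], [(9, 1, 0)], [], [], [], [], [(10, -1, 0)], [(11, -1, 0)], [(12, 1, 0)], [(13, 1, 0)], [], []]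
def cP (b : ℕ) : Col := LP.getD b []

lemma E_cancel {k : Matrix chevG2.Idx chevG2.Idx F} (h : E F = E F * k) : k = 1 := by
  have hP : Mat2 (enc chevG2) (enc chevD4) cP (1 : F) * E F = 1 :=
    Rep2.eq (enc_inj _) ((rep2_appM (t := (1:F)) (u := 1) (enc_inj _)
      (fun b h => List.getD_eq_default _ _ (le_of_not_enc chevD4 h))).mul (rep_E 1 1)) Rep.one
      (by decide +kernel)
  have := congrArg (fun M => Mat2 (enc chevG2) (enc chevD4) cP (1 : F) * M) h
  simp only [← Matrix.mul_assoc, hP, Matrix.one_mul] at this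
  exact this.symm

def x3 (r0 r2 r3 : Rt) (t : F) : GL chevD4.Idx F := K.x r0 t * (K.x r2 t * K.x r3 t)
def a3 (r0 r2 r3 : Rt) (i j : ℕ) (v : Vec) : Vec :=
  appU (K.nil r0) 1 i j (appU (K.nil r2) 1 i j (appU (K.nil r3) 1 i j v))

lemma rep_x3t (r0 r2 r3 : Rt) (t u : F) : Rep2 (enc chevD4) (enc chevD4) t u
    (x3 r0 r2 r3 t : GL chevD4.Idx F) (a3 r0 r2 r3 1 0) := by
  have := (rep_x t u r0 1 1 0).mul ((rep_x t u r2 1 1 0).mul (rep_x t u r3 1 1 0))
  simp only [Int.cast_one, pow_one, pow_zero, one_mul, mul_one] at this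
  exact this

lemma rep_x3u (r0 r2 r3 : Rt) (t u : F) : Rep2 (enc chevD4) (enc chevD4) t u
    (x3 r0 r2 r3 u : GL chevD4.Idx F) (a3 r0 r2 r3 0 1) := by
  have := (rep_x t u r0 1 0 1).mul ((rep_x t u r2 1 0 1).mul (rep_x t u r3 1 0 1))
  simp only [Int.cast_one, pow_one, pow_zero, one_mul, mul_one] at this
  exact this

lemma rep_xt (r : Rt) (t u : F) : Rep2 (enc chevD4) (enc chevD4) t u
    (K.x r t : GL chevD4.Idx F) (appU (K.nil r) 1 1 0) := by
  have := rep_x t u r 1 1 0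
  simp only [Int.cast_one, pow_one, pow_zero, one_mul, mul_one] at this
  exact this

lemma rep_xu (r : Rt) (t u : F) : Rep2 (enc chevD4) (enc chevD4) t u
    (K.x r u : GL chevD4.Idx F) (appU (K.nil r) 1 0 1) := by
  have := rep_x t u r 1 0 1
  simp only [Int.cast_one, pow_one, pow_zero, one_mul, mul_one] at this
  exact this

lemma rep_xt' (r : Rt') (t u : F) : Rep2 (enc chevG2) (enc chevG2) t u
    (G.x r t : GL chevG2.Idx F) (appU (G.nil r) 1 1 0) := by
  have := rep_x' t u r 1 1 0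
  simp only [Int.cast_one, pow_one, pow_zero, one_mul, mul_one] at this
  exact this

abbrev p0 := K.R.sim i0
abbrev p1 := K.R.sim i1
abbrev p2 := K.R.sim i2
abbrev p3 := K.R.sim i3
abbrev m0 := K.R.neg p0
abbrev m1 := K.R.neg p1
abbrev m2 := K.R.neg p2
abbrev m3 := K.R.neg p3

variable (F) in
/-- pairs of matching elements -/
def Γ : Subgroup (GL chevD4.Idx F × GL chevG2.Idx F) where
  carrier := {p | p.1.val * E F = E F * p.2.val ∧ τ p.1 = p.1 ∧
    p.1 ∈ chevD4.group F ∧ p.2 ∈ chevG2.group F}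
  one_mem' := ⟨by simp, by simp, one_mem _, one_mem _⟩
  mul_mem' := by
    rintro a b ⟨a1, a2, a3, a4⟩ ⟨b1, b2, b3, b4⟩
    refine ⟨?_, by simp [a2, b2], mul_mem a3 b3, mul_mem a4 b4⟩
    simp only [Prod.fst_mul, Prod.snd_mul, Units.val_mul]
    rw [Matrix.mul_assoc, b1, ← Matrix.mul_assoc, a1, Matrix.mul_assoc]
  inv_mem' := by
    rintro a ⟨a1, a2, a3, a4⟩
    refine ⟨?_, by simp [a2], inv_mem a3, inv_mem a4⟩
    simp only [Prod.fst_inv, Prod.snd_inv]
    calc _ = (a.1⁻¹).val * (E F * a.2.val) *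
          (a.2⁻¹).val := by
          rw [Matrix.mul_assoc, Matrix.mul_assoc, Units.mul_inv, Matrix.mul_one]
      _ = _ := by rw [← a1, ← Matrix.mul_assoc, Units.inv_mul, Matrix.one_mul]

lemma τ_of_comm {g : GL chevD4.Idx F} (h : θM F * g.val = g.val * θM F) :
    τ g = g := by
  rw [τ_apply, mul_inv_eq_iff_eq_mul]; exact Units.ext h

lemma x3_mem (r0 r2 r3 : Rt) (t : F) : x3 r0 r2 r3 t ∈ chevD4.group F :=
  mul_mem (K.x_mem _ _) (mul_mem (K.x_mem _ _) (K.x_mem _ _))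

lemma Γ_a (t : F) : (x3 p0 p2 p3 t, G.x (G.R.sim ja) t) ∈ Γ F :=
  ⟨Rep2.eq (enc_inj _) ((rep_x3t _ _ _ t 1).mul (rep_E t 1)) ((rep_E t 1).mul (rep_xt' _ t 1))
    (by decide +kernel), τ_of_comm (Rep2.eq (enc_inj _) ((rep_θ t 1).mul (rep_x3t _ _ _ t 1))
    ((rep_x3t _ _ _ t 1).mul (rep_θ t 1)) (by decide +kernel)), x3_mem _ _ _ _, G.x_mem _ _⟩

lemma Γ_na (t : F) : (x3 m0 m2 m3 t, G.x (G.R.neg (G.R.sim ja)) t) ∈ Γ F :=
  ⟨Rep2.eq (enc_inj _) ((rep_x3t _ _ _ t 1).mul (rep_E t 1)) ((rep_E t 1).mul (rep_xt' _ t 1))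
    (by decide +kernel), τ_of_comm (Rep2.eq (enc_inj _) ((rep_θ t 1).mul (rep_x3t _ _ _ t 1))
    ((rep_x3t _ _ _ t 1).mul (rep_θ t 1)) (by decide +kernel)), x3_mem _ _ _ _, G.x_mem _ _⟩

lemma Γ_b (t : F) : (K.x p1 t, G.x (G.R.sim jb) t) ∈ Γ F :=
  ⟨Rep2.eq (enc_inj _) ((rep_xt _ t 1).mul (rep_E t 1)) ((rep_E t 1).mul (rep_xt' _ t 1))
    (by decide +kernel), τ_sim i1 t, K.x_mem _ _, G.x_mem _ _⟩

lemma Γ_nb (t : F) : (K.x m1 t, G.x (G.R.neg (G.R.sim jb)) t) ∈ Γ F :=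
  ⟨Rep2.eq (enc_inj _) ((rep_xt _ t 1).mul (rep_E t 1)) ((rep_E t 1).mul (rep_xt' _ t 1))
    (by decide +kernel), τ_nsim i1 t, K.x_mem _ _, G.x_mem _ _⟩

lemma cm (r s : Rt) (h : ∀ b, eqv (appU (K.nil r) 1 1 0 (appU (K.nil s) 1 0 1 (e0 (enc chevD4 b))))
    (appU (K.nil s) 1 0 1 (appU (K.nil r) 1 1 0 (e0 (enc chevD4 b)))) = true) (t u : F) :
    Commute (K.x r t) (K.x s u) :=
  Units.ext (Rep2.eq (enc_inj _) ((rep_xt r t u).mul (rep_xu s t u)) ((rep_xu s t u).mul (rep_xt r t u)) h)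

lemma shuffle {M : Type*} [Monoid M] {a a' b b' c c' : M} (h1 : Commute a' b) (h2 : Commute a' c)
    (h3 : Commute b' c) : (a * a') * ((b * b') * (c * c')) = (a * b * c) * (a' * (b' * c')) := by
  rw [h3.mul_mul_mul_comm, (h1.mul_right h2).mul_mul_mul_comm, mul_assoc a b c]

lemma xyx (t u : F) : x3 p0 p2 p3 t * (x3 m0 m2 m3 u * x3 p0 p2 p3 t) =
    (K.x p0 t * K.x m0 u * K.x p0 t) * ((K.x p2 t * K.x m2 u * K.x p2 t) *
      (K.x p3 t * K.x m3 u * K.x p3 t)) := by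
  unfold x3
  rw [shuffle ((cm p2 m0 (by decide +kernel) _ _).mul_left (cm p3 m0 (by decide +kernel) _ _))
    ((cm p2 p0 (by decide +kernel) _ _).mul_left (cm p3 p0 (by decide +kernel) _ _))
    ((cm m2 p0 (by decide +kernel) _ _).mul_left (cm m3 p0 (by decide +kernel) _ _)),
    shuffle (cm p3 m2 (by decide +kernel) _ _) (cm p3 p2 (by decide +kernel) _ _)
      (cm m3 p2 (by decide +kernel) _ _), mul_assoc (K.x p3 t)]

variable (F) in
def H : Subgroup (GL chevD4.Idx F) := (Γ F).map (MonoidHom.fst _ _)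

lemma H_fix {g : GL chevD4.Idx F} (h : g ∈ H F) : τ g = g := by
  obtain ⟨p, hp, rfl⟩ := h; exact hp.2.1

lemma xyx_mem (t u : F) : (K.x p0 t * K.x m0 u * K.x p0 t) * ((K.x p2 t * K.x m2 u * K.x p2 t) *
      (K.x p3 t * K.x m3 u * K.x p3 t)) ∈ H F := by
  rw [← xyx]
  exact mul_mem ⟨_, Γ_a t, rfl⟩ (mul_mem ⟨_, Γ_na u, rfl⟩ ⟨_, Γ_a t, rfl⟩)

lemma xyx_mem' (t u : F) : K.x p1 t * K.x m1 u * K.x p1 t ∈ H F :=
  mul_mem (mul_mem ⟨_, Γ_b t, rfl⟩ ⟨_, Γ_nb u, rfl⟩) ⟨_, Γ_b t, rfl⟩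

lemma n_H (j : Nd') : (fold F).n j ∈ H F := by
  rcases nd'_cases j with rfl | rfl
  · have := xyx_mem (1 : F) (-1)
    change K.n F i0 * (K.n F i2 * (K.n F i3 * 1)) ∈ H F
    rw [mul_one]; exact this
  · change K.n F i1 * 1 ∈ H F
    rw [mul_one]; exact xyx_mem' 1 (-1)

lemma h_H (χ : Chr chevD4.rank F) (h : τ (K.h χ) = K.h χ) : K.h χ ∈ H F := by
  have h1 : ∀ i, χ.ev (Lc (Pi.single i 1)) = χ.ev (Pi.single i 1) := fun i => by
    rw [τ_h] at h
    have := congrArg (fun g : GL chevD4.Idx F => g.val (Sum.inr (K.R.sim i))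
      (Sum.inr (K.R.sim i))) h
    simp only [Cert.h_val, diagonal_apply_eq, Cert.wt, Sum.elim_inr, K.R.ρ_sim, Chr.ev_comp] at this
    exact Units.ext this
  have h2 := h1 i2
  have h3 := h1 i3
  rw [show Lc (Pi.single i2 1) = Pi.single i0 1 by decide +kernel] at h2
  rw [show Lc (Pi.single i3 1) = Pi.single i2 1 by decide +kernel] at h3
  set α := χ.ev (Pi.single i0 1) with hα
  set β := χ.ev (Pi.single i1 1) with hβ
  let s := α ^ 2 * β
  let t := α ^ 3 * β ^ 2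
  have a1 := xyx_mem (s : F) (-((s⁻¹ : Fˣ) : F))
  rw [K.n_t, K.n_t, K.n_t] at a1
  have a2 := xyx_mem' (t : F) (-((t⁻¹ : Fˣ) : F))
  rw [K.n_t] at a2
  have a3 : K.n F i0 * (K.n F i2 * K.n F i3) ∈ H F := xyx_mem (1 : F) (-1)
  have a4 : K.n F i1 ∈ H F := xyx_mem' (1 : F) (-1)
  have a5 := mul_mem (mul_mem a1 (inv_mem a3)) (mul_mem a2 (inv_mem a4))
  have a6 : K.h (K.κ i0 s) * K.n F i0 * (K.h (K.κ i2 s) * K.n F i2 * (K.h (K.κ i3 s) * K.n F i3)) *
      (K.n F i0 * (K.n F i2 * K.n F i3))⁻¹ * (K.h (K.κ i1 t) * K.n F i1 * (K.n F i1)⁻¹) =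
      K.h (K.κ i0 s * Chr.comp (K.κ i2 s * Chr.comp (K.κ i3 s) (K.R.sL i2)) (K.R.sL i0) * K.κ i1 t) := by
    rw [map_mul, map_mul, ← K.n_h, map_mul, ← K.n_h]; group
  rw [a6] at a5
  convert a5 using 2
  refine Chr.ext' fun j => ?_
  simp only [Chr.ev_mul, Chr.ev_comp, Cert.κ_ev, ← _root_.zpow_add]
  have e1 : ∀ j : Nd, (∑ k, K.R.cart i0 k * (Pi.single j 1 : Nd → ℤ) k + (∑ k, K.R.cart i2 k *
      K.R.sL i0 (Pi.single j 1) k + ∑ k, K.R.cart i3 k * K.R.sL i2 (K.R.sL i0 (Pi.single j 1)) k)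
        = if j = i1 then -3 else 2) ∧
      (∑ k, K.R.cart i1 k * (Pi.single j 1 : Nd → ℤ) k = if j = i1 then 2 else -1) := by
    decide +kernel
  rw [(e1 j).1, (e1 j).2]
  have e2 : α = s ^ (2 : ℤ) * t ^ (-1 : ℤ) := by
    simp only [s, t, ← zpow_natCast, mul_zpow, ← _root_.zpow_mul]
    rw [mul_mul_mul_comm, ← _root_.zpow_add, ← _root_.zpow_add]; simp
  have e3 : β = s ^ (-3 : ℤ) * t ^ (2 : ℤ) := by
    simp only [s, t, ← zpow_natCast, mul_zpow, ← _root_.zpow_mul]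
    rw [mul_mul_mul_comm, ← _root_.zpow_add, ← _root_.zpow_add]; simp
  rcases nd_cases j with rfl | rfl | rfl | rfl
  · exact e2
  · exact e3
  · exact h2.symm.trans e2
  · exact (h3.symm.trans h2.symm).trans e2

lemma τ_fX (S : Set Rt') {g : GL chevD4.Idx F} (hg : g ∈ US (fold F).X S) : τ g ∈ US (fold F).X S := by
  change _ ∈ US (fun R => US (K.X F) (pr ⁻¹' {R})) S at hg ⊢
  rw [US_pre] at hg ⊢
  exact τ_US (fun r hr => by simpa [pr_cr] using hr) hg

lemma fix_X (j : Nd') {x : GL chevD4.Idx F} (hx : x ∈ (fold F).X (G.R.sim j)) (h : τ x = x) :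
    ∃ t, (x, G.x (G.R.sim j) t) ∈ Γ F ∧ (t = 0 → x = 1) := by
  rcases nd'_cases j with rfl | rfl
  · obtain ⟨a, b, c, rfl⟩ := mem_Xa hx
    refine ⟨a, ?_⟩
    have key : ∀ a b c : F, τ (K.x p0 a * (K.x p2 b * K.x p3 c)) = K.x p2 a * (K.x p3 b * K.x p0 c) := by
      intro a b c; simp only [map_mul, τ_sim]; rfl
    rw [key] at h
    rw [(cm p3 p0 (by decide +kernel) _ _).eq, ← mul_assoc,
      (cm p2 p0 (by decide +kernel) _ _).eq, mul_assoc] at h
    obtain ⟨e1, e2⟩ := (K.full F).split_unique (K.x_mem_X _ c) (K.x_mem_X _ a)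
      (mul_mem (x_mem_P' (by decide) a) (x_mem_P' (by decide) b))
      (mul_mem (x_mem_P' (by decide) b) (x_mem_P' (by decide) c)) h
    obtain ⟨e3, -⟩ := (K.full F).split_unique (K.x_mem_X _ a) (K.x_mem_X _ b)
      (x_mem_P' (by decide) b) (x_mem_P' (by decide) c) e2
    rw [x_inj e1, ← x_inj e3]
    exact ⟨Γ_a a, by rintro rfl; simp⟩
  · obtain ⟨a, rfl⟩ := mem_Xb hx
    exact ⟨a, Γ_b a, by rintro rfl; simp⟩

lemma fix_split (j : Nd') {x u : GL chevD4.Idx F} (hx : x ∈ (fold F).X (G.R.sim j))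
    (hu : u ∈ US (fold F).X (G.R.P' j)) (h : τ (x * u) = x * u) : τ x = x ∧ τ u = u := by
  rw [map_mul] at h
  have h1 : τ x ∈ (fold F).X (G.R.sim j) := τ_US (fun r hr => by simpa [pr_cr] using hr) hx
  exact (fold F).split_unique h1 hx (τ_fX _ hu) hu h

lemma U_H {u : GL chevD4.Idx F} (hu : u ∈ (K.full F).U) (h : τ u = u) : u ∈ H F := by
  rw [← fold_U] at hu
  refine (fold F).peel_U (fun g => τ g = g) (H F) n_H (fun j x hx u hu h => ?_) u hu h
  obtain ⟨h1, h2⟩ := fix_split j hx hu h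
  obtain ⟨t, ht, -⟩ := fix_X j hx h1
  exact ⟨⟨_, ht, rfl⟩, by simp [h2, H_fix (n_H j)]⟩

lemma nW_H (w : List Nd') : K.nW F (unf w) ∈ H F := by
  rw [← fold_nW]; exact (fold F).nW_mem n_H w

lemma decomp {g : GL chevD4.Idx F} (hg : g ∈ chevD4.group F) (h : τ g = g) :
    ∃ w a k u, a ∈ US (K.X F) (K.R.Inv (unf w)) ∧ k ∈ (K.full F).T ∧ u ∈ (K.full F).U ∧
      τ a = a ∧ τ k = k ∧ τ u = u ∧ g = a * K.nW F (unf w) * k * u := by
  rw [K.group_eq] at hg
  obtain ⟨w, a, ha, k, hk, u, hu, rfl⟩ := (K.full F).bruhat hg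
  have hU : ∀ u ∈ (K.full F).U, τ u ∈ (K.full F).U := fun u hu =>
    τ_US (fun r hr => (pos_cr r).2 hr) hu
  have hUm : ∀ u ∈ (K.full F).Um, τ u ∈ (K.full F).Um := fun u hu =>
    τ_US (S := {r | ¬ K.R.pos r}) (fun r hr => fun h => hr ((pos_cr r).1 h)) hu
  have hT : ∀ k ∈ (K.full F).T, τ k ∈ (K.full F).T := by
    rintro _ ⟨χ, rfl⟩; exact ⟨_, (τ_h χ).symm⟩
  have ha' : a ∈ (K.full F).U := US_mono (fun r hr => hr.1) ha
  have h1 : K.R.inv (w.map cn) = K.R.inv w := K.cell_unique (hU a ha') ha' (hT k hk) hk (hU u hu) hu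
    (by rw [← τ_nW, ← map_mul, ← map_mul, ← map_mul]; exact h)
  obtain ⟨w', hw'⟩ := exists_unf w fun r => by rw [← inv_cr, h1]
  obtain ⟨k', hk', e⟩ := K.nW_eq_of_inv (F := F) etaOK hw'
  rw [K.R.Inv_congr hw'] at ha
  have hv := (K.full F).conj_Inv ha
  have hn := H_fix (nW_H (F := F) w')
  have e' : (K.full F).nW w = (K.full F).nW (unf w') * k' := e
  have hn' : τ ((K.full F).nW (unf w')) = (K.full F).nW (unf w') := hn
  obtain ⟨e1, e2, e3⟩ := (K.full F).ldu_unique (hUm _ hv) hv (hT _ (mul_mem hk' hk)) (mul_mem hk' hk)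
    (hU u hu) hu (by
      rw [e'] at h
      simp only [map_mul, map_inv, hn'] at h ⊢
      calc _ = ((K.full F).nW (unf w'))⁻¹ * (τ a * ((K.full F).nW (unf w') * τ k') * τ k * τ u) := by group
        _ = _ := by rw [h]; group)
  refine ⟨w', a, k' * k, u, ha, mul_mem hk' hk, hu, by simpa [hn'] using e1, e2, e3, ?_⟩
  rw [e']; simp only [Cert.nW]; group

theorem fix_H {g : GL chevD4.Idx F} (hg : g ∈ chevD4.group F) (h : τ g = g) : g ∈ H F := by
  obtain ⟨w, a, _, u, ha, ⟨χ, rfl⟩, hu, h1, h2, h3, rfl⟩ := decomp hg h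
  exact mul_mem (mul_mem (mul_mem (U_H (US_mono (fun r hr => hr.1) ha) h1) (nW_H w)) (h_H χ h2))
    (U_H hu h3)

lemma E_inr (a : chevD4.Idx) (R : Rt') : E F a (Sum.inr R) =
    Sum.elim (fun _ => 0) (fun s => if pr s = R then (dl s : F) else 0) a := by
  have : ∀ a R, Mat2 (enc chevD4) (enc chevG2) cE (1 : ℤ) a (Sum.inr R) =
      Sum.elim (fun _ => 0) (fun s => if pr s = R then dl s else 0) a := by decide +kernel
  rw [E, Mat2_cast, this]
  rcases a with a | a <;> simp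

lemma E_inl (i : Nd) (b : chevG2.Idx) : E F (Sum.inl i) b = if b = Sum.inl (pn i) then 1 else 0 := by
  have : ∀ i b, Mat2 (enc chevD4) (enc chevG2) cE (1 : ℤ) (Sum.inl i) b =
      if b = Sum.inl (pn i) then 1 else 0 := by decide +kernel
  rw [E, Mat2_cast, this]; simp

lemma dl_ne (r : Rt) : (dl r : F) ≠ 0 := by
  have : ∀ r, dl r = 1 ∨ dl r = -1 := by decide +kernel
  rcases this r with h | h <;> simp [h]

lemma U_E {u : GL chevD4.Idx F} (hu : u ∈ (K.full F).U) (r : Rt) :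
    (u.val * E F) (Sum.inr r) (Sum.inr (pr r)) = dl r := by
  have hht : ∀ r s, pr r = pr s → RS.ht (K.R.ρ r) = RS.ht (K.R.ρ s) := by decide +kernel
  rw [Matrix.mul_apply, Finset.sum_eq_single (Sum.inr r)]
  · rw [K.tri_U hu _ _ (by simp [RS.ht]), E_inr]; simp
  · rintro (c | c) - hc
    · simp [E_inr]
    · rw [E_inr]
      by_cases h : pr c = pr r
      · rw [K.tri_U hu _ _ (by
          have := hht c r h
          simp only [Set.mem_ofPred_eq, Cert.wt, Sum.elim_inr, RS.ht, Pi.sub_apply,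
            Finset.sum_sub_distrib] at this ⊢
          omega), one_apply_ne hc.symm, zero_mul]
      · simp [h]
  · simp

theorem eq_one_of_E {g : GL chevD4.Idx F} (hg : g ∈ chevD4.group F) (h : τ g = g)
    (hE : g.val * E F = E F) : g = 1 := by
  obtain ⟨w, a, _, u, ha, ⟨χ, rfl⟩, hu, h1, h2, h3, rfl⟩ := decomp hg h
  have hv := inv_mem ((K.full F).conj_Inv ha)
  set v := ((K.full F).nW (unf w))⁻¹ * a * (K.full F).nW (unf w) with hvdef
  have hpos : ∀ r, K.R.pos r → K.R.pos (K.R.inv (unf w) r) := by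
    intro r hr
    have e1 : (K.h χ * u).val * E F =
        (v⁻¹ * (K.nW F (unf w))⁻¹).val * E F := by
      conv_rhs => rw [← hE, ← Matrix.mul_assoc, ← Units.val_mul]
      congr 2
      simp only [v, Cert.nW]; group
    have e2 := congrFun (congrFun e1 (Sum.inr r)) (Sum.inr (pr r))
    rw [Units.val_mul, Matrix.mul_assoc, Cert.h_val, diagonal_mul, U_E hu, Matrix.mul_apply] at e2
    obtain ⟨c, -, hc⟩ := Finset.exists_ne_zero_of_sum_ne_zero
      (e2 ▸ mul_ne_zero (Units.ne_zero _) (dl_ne r))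
    have c1 := left_ne_zero_of_mul hc
    have c2 := right_ne_zero_of_mul hc
    rw [E_inr] at c2
    rcases c with c | s
    · simp at c2
    have c3 : pr s = pr r := by by_contra hne; simp [hne] at c2
    obtain ⟨ε, -, hε⟩ := K.nW_inv_mulVec (F := F) (unf w) s
    have c4 : (v⁻¹ * (K.nW F (unf w))⁻¹).val (Sum.inr r) (Sum.inr s) =
        ε * (v⁻¹).val (Sum.inr r) (Sum.inr (K.R.inv (unf w) s)) := by
      have := congrFun (congrArg (fun z => (v⁻¹).val *ᵥ z) hε) (Sum.inr r)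
      simp only [mulVec_mulVec, mulVec_smul, mulVec_single_one, Matrix.col_apply, Pi.smul_apply,
        smul_eq_mul] at this
      rw [Units.val_mul]; exact this
    rw [c4] at c1
    have c5 := right_ne_zero_of_mul c1
    have c6 : K.R.pos (K.R.inv (unf w) s) := by
      by_contra hn
      have d1 := K.R.ht_neg hn
      have d2 := K.R.ht_pos hr
      rw [K.tri_Um hv _ _ (by
        simp only [Set.mem_ofPred_eq, Cert.wt, Sum.elim_inr, RS.ht, Pi.sub_apply,
          Finset.sum_sub_distrib] at d1 d2 ⊢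
        omega), one_apply_ne (by intro h; rw [← Sum.inr.inj h] at hn; exact hn hr)] at c5
      exact c5 rfl
    rw [← pos_pr, pr_unf] at c6 ⊢
    rwa [← c3]
  have ha1 : a = 1 := by
    have : K.R.Inv (unf w) = ∅ := Set.eq_empty_of_forall_notMem fun r hr => hr.2 (hpos r hr.1)
    rwa [this, US_empty, Subgroup.mem_bot] at ha
  obtain ⟨ψ, hψ⟩ := mul_mem (K.nW_mem_T (F := F) etaOK _ hpos) (⟨χ, rfl⟩ : K.h χ ∈ (K.full F).T)
  rw [ha1, one_mul, ← hψ] at hE ⊢
  have hψ1 : ψ = 1 := Chr.ext' fun i => by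
    have e2 := congrFun (congrFun hE (Sum.inr (K.R.sim i))) (Sum.inr (pr (K.R.sim i)))
    rw [Units.val_mul, Matrix.mul_assoc, Cert.h_val, diagonal_mul, U_E hu, E_inr] at e2
    simp only [Cert.wt, Sum.elim_inr, K.R.ρ_sim, if_true] at e2
    exact Units.ext (by simpa using (mul_left_eq_self₀.1 e2).resolve_right (dl_ne _))
  rw [hψ1, map_one, one_mul] at hE ⊢
  rw [← fold_U] at hu
  refine (fold F).peel_bot (fun g => τ g = g ∧ g.val * E F = E F) ?_ u hu ⟨h3, hE⟩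
  rintro j x hx u hu ⟨b1, b2⟩
  obtain ⟨b3, b4⟩ := fix_split j hx hu b1
  obtain ⟨t, ht, b7⟩ := fix_X j hx b3
  have b5 : u.val * E F = E F * chevG2.xMat F (G.R.sim j) (-t) := by
    have := (inv_mem ht).1
    simp only [Prod.fst_inv, Prod.snd_inv, ← G.x_neg, Cert.x_val] at this
    rw [← this]
    conv_rhs => rw [← b2, ← Matrix.mul_assoc, ← Units.val_mul]
    simp
  have b6 : t = 0 := by
    obtain ⟨i, rfl⟩ := (by decide : ∀ j, ∃ i, pn i = j) j
    have e2 := congrFun (congrFun b5 (Sum.inl i)) (Sum.inr (G.R.neg (G.R.sim (pn i))))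
    rw [Matrix.mul_apply, Matrix.mul_apply, Finset.sum_eq_zero, Finset.sum_eq_single (Sum.inl (pn i))] at e2
    · rw [G.x_entry, E_inl] at e2; simpa using e2
    · intro b _ hb; simp [E_inl, hb]
    · simp
    · rintro (c | c) -
      · simp [E_inr]
      · rw [E_inr]
        by_cases hc : pr c = G.R.neg (G.R.sim (pn i))
        · obtain ⟨k, hk, rfl⟩ := (by decide +kernel : ∀ c i, pr c = G.R.neg (G.R.sim (pn i)) →
            ∃ k, pn k = pn i ∧ c = K.R.neg (K.R.sim k)) c i hc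
          change u ∈ US (fun R => US (K.X F) (pr ⁻¹' {R})) _ at hu
          rw [US_pre, ← hk] at hu
          rw [K.entry_P'' k i (US_mono (pre_P' k) hu), zero_mul]
        · simp [hc]
  subst b6
  rw [neg_zero, G.xMat_zero, Matrix.mul_one] at b5
  obtain ⟨p, hp, hp'⟩ := n_H (F := F) j
  refine ⟨b7 rfl, by simp [b4, H_fix (n_H j)], ?_⟩
  have c1 := hp.1
  have c2 := (inv_mem hp).1
  rw [← hp']
  simp only [MonoidHom.coe_fst, Units.val_mul, Matrix.mul_assoc]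
  rw [c1, ← Matrix.mul_assoc u.val, b5, ← c1, ← Matrix.mul_assoc, Units.inv_mul,
    Matrix.one_mul]

theorem iso (S : Subgroup (chevD4.group F)) (hS : ∀ g, g ∈ S ↔ τ g.val = g.val) :
    Nonempty (S ≃* chevG2.group F) := by
  let f1 : Γ F →* S := MonoidHom.codRestrict (MonoidHom.codRestrict
    ((MonoidHom.fst _ _).comp (Γ F).subtype) (chevD4.group F) fun p => p.2.2.2.1) S
    fun p => (hS _).2 p.2.2.1
  let f2 : Γ F →* chevG2.group F := MonoidHom.codRestrict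
    ((MonoidHom.snd _ _).comp (Γ F).subtype) (chevG2.group F) fun p => p.2.2.2.2
  have h1 : Function.Bijective f1 := by
    constructor
    · rw [injective_iff_map_eq_one]
      rintro ⟨⟨g, k⟩, hp⟩ h
      have h1 : g = 1 := congrArg (fun x : S => x.val.val) h
      subst h1
      have h2 : k = 1 := Units.ext (E_cancel (by simpa using hp.1))
      subst h2; rfl
    · rintro ⟨⟨g, hg⟩, hs⟩
      obtain ⟨p, hp, rfl⟩ := fix_H hg ((hS _).1 hs)
      exact ⟨⟨p, hp⟩, rfl⟩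
  have h2 : Function.Bijective f2 := by
    constructor
    · rw [injective_iff_map_eq_one]
      rintro ⟨⟨g, k⟩, hp⟩ h
      have h1 : k = 1 := congrArg (fun x : chevG2.group F => x.val) h
      subst h1
      have h2 : g = 1 := eq_one_of_E hp.2.2.1 hp.2.1 (by simpa using hp.1)
      subst h2; rfl
    · rintro ⟨k, hk⟩
      obtain ⟨p, hp, rfl⟩ := G.le_of_simple ((Γ F).map (MonoidHom.snd _ _)) (fun j t => by
        rcases nd'_cases j with rfl | rfl
        exacts [⟨_, Γ_a t, rfl⟩, ⟨_, Γ_b t, rfl⟩]) (fun j t => by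
        rcases nd'_cases j with rfl | rfl
        exacts [⟨_, Γ_na t, rfl⟩, ⟨_, Γ_nb t, rfl⟩]) hk
      exact ⟨⟨p, hp⟩, rfl⟩
  exact ⟨(MulEquiv.ofBijective f1 h1).symm.trans (MulEquiv.ofBijective f2 h2)⟩

lemma τ3 (g : GL chevD4.Idx F) : τ (τ (τ g)) = g := by
  simp only [τ_apply]
  calc _ = (θ F * (θ F * θ F)) * g * (θ F * (θ F * θ F))⁻¹ := by group
    _ = g := by rw [θ_cube]; simp

theorem main (φ : MulAut ↥(chevD4.group F)) (hφ : chevD4.IsGraphAut φ) (h3 : orderOf φ = 3) :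
    Nonempty (↥(MonoidHom.eqLocus φ.toMonoidHom (MonoidHom.id ↥(chevD4.group F))) ≃* ↥(chevG2.group F)) := by
  obtain ⟨π, hπ, h⟩ := hφ
  have he : ∀ i j : Nd, chevD4.graphExp (ringChar F) i j = 1 := fun i j => by
    have : ∀ j : Nd, chevD4.isLong (chevD4.simple j) = false := by decide +kernel
    simp [ChevalleyDatum.graphExp, this]
  have a1 : ∀ i t, φ ⟨_, K.x_mem (K.R.sim i) t⟩ = ⟨_, K.x_mem (K.R.sim (π i)) t⟩ := fun i t => by
    have := (h ⟨_, K.x_mem (K.R.sim i) t⟩ i t).1 (by rw [← K.sim_val]; exact K.x_val' _ _)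
    rw [he, pow_one, ← K.sim_val, ← K.x_val'] at this
    exact Subtype.ext (Units.ext this)
  have a2 : ∀ i t, φ ⟨_, K.x_mem (K.R.neg (K.R.sim i)) t⟩ = ⟨_, K.x_mem (K.R.neg (K.R.sim (π i))) t⟩ :=
    fun i t => by
    have := (h ⟨_, K.x_mem (K.R.neg (K.R.sim i)) t⟩ i t).2 (by
      rw [← K.sim_val, ← K.neg_val]; exact K.x_val' _ _)
    rw [he, pow_one, ← K.sim_val, ← K.neg_val, ← K.x_val'] at this
    exact Subtype.ext (Units.ext this)
  have hc : ∀ π : Equiv.Perm Nd, chevD4.IsDiagramSymmetry π →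
      (∀ i, π i = cn i) ∨ (∀ i, π i = cn (cn i)) ∨ (∀ i, π (π i) = i) := by
    unfold ChevalleyDatum.IsDiagramSymmetry; decide +kernel
  rcases hc π hπ with h1 | h1 | h1
  · have := K.hom_ext ((chevD4.group F).subtype.comp φ.toMonoidHom) (τ.comp (chevD4.group F).subtype)
      (fun i t => by simp [a1, τ_sim, h1]) (fun i t => by simp [a2, τ_nsim, h1])
    refine iso _ fun g => ?_
    have e : (φ g).val = τ g.val := DFunLike.congr_fun this g
    rw [← e]
    exact ⟨fun h => congrArg Subtype.val h, fun h => Subtype.ext h⟩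
  · have := K.hom_ext ((chevD4.group F).subtype.comp φ.toMonoidHom)
      (τ.comp (τ.comp (chevD4.group F).subtype))
      (fun i t => by simp [a1, τ_sim, h1]) (fun i t => by simp [a2, τ_nsim, h1])
    refine iso _ fun g => ?_
    have e : (φ g).val = τ (τ g.val) := DFunLike.congr_fun this g
    constructor
    · intro h
      have h4 : τ (τ g.val) = g.val := e ▸ congrArg Subtype.val h
      conv_lhs => rw [← h4]
      exact τ3 _
    · intro h
      exact Subtype.ext (by change (φ g).val = _; rw [e, h, h]; rfl)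
  · exfalso
    have := K.hom_ext (φ.toMonoidHom.comp φ.toMonoidHom) (MonoidHom.id _)
      (fun i t => by simp [a1, h1]) (fun i t => by simp [a2, h1])
    have h2 : φ ^ 2 = 1 := by
      ext g : 1
      exact DFunLike.congr_fun this g
    have := orderOf_dvd_of_pow_eq_one h2
    rw [h3] at this
    omega

end
end Cfsg.Agent.Lib.Chev.Tri
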